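import Cfsg.Agent.Lib.Helper11.Cls.Part

set_option autoImplicit false

namespace Cfsg.Agent.Lib.Helper11.Cls

open Equiv.Perm

theorem kS_le (n : ℕ) :
    Nat.card (ConjClasses (Equiv.Perm (Fin n))) ≤ Fintype.card (Nat.Partition n) := by
  let f : ConjClasses (Equiv.Perm (Fin n)) → Nat.Partition (Fintype.card (Fin n)) :=
    Quotient.lift (fun σ => σ.partition) (fun a b h => partition_eq_of_isConj.1 h)
  have hf : Function.Injective f := by
    intro x y
    induction x, y using Quotient.inductionOn₂ with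
    | _ a b =>
      intro h
      exact Quotient.sound (partition_eq_of_isConj.2 h)
  have h1 := Nat.card_le_card_of_injective f hf
  rw [Nat.card_eq_fintype_card (α := Nat.Partition (Fintype.card (Fin n)))] at h1
  simpa only [Fintype.card_fin] using h1

variable {n : ℕ}

abbrev Sn (n : ℕ) := Equiv.Perm (Fin n)
abbrev An (n : ℕ) := ↥(alternatingGroup (Fin n))

noncomputable def ct (x : ConjClasses (Sn n)) : Multiset ℕ := (Quotient.out x).cycleType
noncomputable def sg (x : ConjClasses (Sn n)) : ℤˣ := sign (Quotient.out x)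

theorem out_conj (σ : Sn n) : IsConj (Quotient.out (ConjClasses.mk σ)) σ :=
  ConjClasses.mk_eq_mk_iff_isConj.1 (Quotient.out_eq (ConjClasses.mk σ))

theorem ct_mk (σ : Sn n) : ct (ConjClasses.mk σ) = σ.cycleType :=
  isConj_iff_cycleType_eq.1 (out_conj σ)

theorem sign_conj {σ τ : Sn n} (h : IsConj σ τ) : sign σ = sign τ := by
  rw [sign_of_cycleType, sign_of_cycleType, isConj_iff_cycleType_eq.1 h]

theorem sg_mk (σ : Sn n) : sg (ConjClasses.mk σ) = sign σ := sign_conj (out_conj σ)

theorem ct_inj {x y : ConjClasses (Sn n)} (h : ct x = ct y) : x = y := by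
  rw [← Quotient.out_eq x, ← Quotient.out_eq y]
  exact Quotient.sound (isConj_iff_cycleType_eq.2 h)

noncomputable def io (y : ConjClasses (An n)) : ConjClasses (Sn n) :=
  ConjClasses.mk ((Quotient.out y : An n) : Sn n)

theorem sg_io (y : ConjClasses (An n)) : sg (io y) = 1 := by
  unfold io
  rw [sg_mk]
  exact (Quotient.out y).2

theorem conjA (y y' : ConjClasses (An n)) (g : Sn n) (hg : sign g = 1)
    (h : g * ((Quotient.out y : An n) : Sn n) * g⁻¹ = ((Quotient.out y' : An n) : Sn n)) : y = y' := by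
  rw [← Quotient.out_eq y, ← Quotient.out_eq y']
  apply Quotient.sound
  exact isConj_iff.2 ⟨⟨g, hg⟩, Subtype.ext h⟩

theorem io_conj {y y' : ConjClasses (An n)} (h : io y = io y') :
    ∃ g : Sn n, g * ((Quotient.out y : An n) : Sn n) * g⁻¹ = ((Quotient.out y' : An n) : Sn n) :=
  isConj_iff.1 (ConjClasses.mk_eq_mk_iff_isConj.1 h)

theorem F2 (y1 y2 y3 : ConjClasses (An n)) (h12 : io y1 = io y2) (h13 : io y1 = io y3) :
    y1 = y2 ∨ y1 = y3 ∨ y2 = y3 := by
  obtain ⟨g, hg⟩ := io_conj h12
  obtain ⟨k, hk⟩ := io_conj h13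
  rcases Int.units_eq_one_or (sign g) with sgn | sgn
  · exact Or.inl (conjA _ _ g sgn hg)
  · rcases Int.units_eq_one_or (sign k) with sk | sk
    · exact Or.inr (Or.inl (conjA _ _ k sk hk))
    · right; right
      apply conjA _ _ (k * g⁻¹)
      · rw [map_mul, map_inv, sgn, sk]; rfl
      · rw [← hg, ← hk]; group

def Split (n : ℕ) (m : Multiset ℕ) : Prop :=
  (∀ c ∈ m, Odd c) ∧ n ≤ m.sum + 1 ∧ ∀ i, Multiset.count i m ≤ 1

theorem F1 {y y' : ConjClasses (An n)} (h : io y = io y') (hne : y ≠ y') : Split n (ct (io y)) := by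
  obtain ⟨g, hg⟩ := io_conj h
  have sgn : sign g = -1 := by
    rcases Int.units_eq_one_or (sign g) with sgn | sgn
    · exact absurd (conjA _ _ g sgn hg) hne
    · exact sgn
  have hc : Subgroup.centralizer {((Quotient.out y : An n) : Sn n)} ≤ alternatingGroup (Fin n) := by
    intro c hc
    rw [Subgroup.mem_centralizer_singleton_iff] at hc
    rcases Int.units_eq_one_or (sign c) with sc | sc
    · exact sc
    · exfalso
      apply hne
      apply conjA _ _ (g * c)
      · rw [map_mul, sgn, sc]; rfl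
      · rw [← hg]
        have : c * ((Quotient.out y : An n) : Sn n) * c⁻¹ = ((Quotient.out y : An n) : Sn n) := by
          rw [hc, mul_inv_cancel_right]
        calc g * c * ((Quotient.out y : An n) : Sn n) * (g * c)⁻¹
            = g * (c * ((Quotient.out y : An n) : Sn n) * c⁻¹) * g⁻¹ := by group
          _ = _ := by rw [this]
  have := centralizer_le_alternating_iff.1 hc
  unfold io
  rw [ct_mk]
  simpa [Split] using this

noncomputable def dec (m : Multiset ℕ) : Multiset ℕ := (lp m - 1) ::ₘ m.erase (lp m)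

theorem split_facts (hn : 5 ≤ n) {m : Multiset ℕ} (h : Split n m) : lp m ∈ m ∧ Odd (lp m) := by
  have hne : m ≠ 0 := by
    rintro rfl
    have := h.2.1
    simp at this
    omega
  exact ⟨lp_mem hne, h.1 _ (lp_mem hne)⟩

theorem dec_inj (hn : 5 ≤ n) {m1 m2 : Multiset ℕ} (h1 : Split n m1) (h2 : Split n m2)
    (h : dec m1 = dec m2) : m1 = m2 := by
  obtain ⟨a1, o1⟩ := split_facts hn h1
  obtain ⟨a2, o2⟩ := split_facts hn h2
  have e1 : lp m1 - 1 ∈ dec m2 := by rw [← h]; exact Multiset.mem_cons_self _ _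
  have heq : lp m1 = lp m2 := by
    rcases Multiset.mem_cons.1 e1 with e | e
    · obtain ⟨k1, hk1⟩ := o1
      obtain ⟨k2, hk2⟩ := o2
      omega
    · have := h2.1 _ (Multiset.mem_of_mem_erase e)
      obtain ⟨k1, hk1⟩ := o1
      obtain ⟨k2, hk2⟩ := this
      omega
  unfold dec at h
  rw [heq] at h
  have h3 := (Multiset.cons_inj_right _).1 h
  rw [← Multiset.cons_erase a1, ← Multiset.cons_erase a2, heq, ← h3]

open Classical in
noncomputable def hh (x : ConjClasses (Sn n)) : ConjClasses (Sn n) :=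
  if hx : ∃ τ : Sn n, τ.cycleType = dec (ct x) then ConjClasses.mk (Classical.choose hx) else x

theorem hh_spec (hn : 5 ≤ n) (x : ConjClasses (Sn n)) (h : Split n (ct x)) :
    ct (hh x) = dec (ct x) ∧ sg (hh x) = -1 := by
  classical
  obtain ⟨a1, o1⟩ := split_facts hn h
  have h2 : 2 ≤ lp (ct x) := two_le_of_mem_cycleType a1
  have hx : ∃ τ : Sn n, τ.cycleType = dec (ct x) := by
    rw [exists_with_cycleType_iff]
    constructor
    · have s1 := Multiset.sum_erase a1
      have s2 : (ct x).sum ≤ Fintype.card (Fin n) := sum_cycleType_le _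
      unfold dec
      rw [Multiset.sum_cons]
      omega
    · intro a ha
      rcases Multiset.mem_cons.1 ha with rfl | ha
      · obtain ⟨k1, hk1⟩ := o1
        omega
      · exact two_le_of_mem_cycleType (Multiset.mem_of_mem_erase ha)
  have hct := Classical.choose_spec hx
  unfold hh
  rw [dif_pos hx]
  refine ⟨by rw [ct_mk, hct], ?_⟩
  rw [sg_mk, sign_of_cycleType', hct]
  unfold dec
  rw [Multiset.map_cons, Multiset.prod_cons]
  have p1 : (Multiset.map (fun k => -(-1 : ℤˣ) ^ k) ((ct x).erase (lp (ct x)))).prod = 1 := by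
    apply Multiset.prod_eq_one
    intro u hu
    obtain ⟨k, hk, rfl⟩ := Multiset.mem_map.1 hu
    have := h.1 k (Multiset.mem_of_mem_erase hk)
    rw [this.neg_one_pow]
    simp
  rw [p1, mul_one]
  have ev : Even (lp (ct x) - 1) := by
    obtain ⟨k1, hk1⟩ := o1
    exact ⟨k1, by omega⟩
  rw [ev.neg_one_pow]

noncomputable def dd (x : ConjClasses (Sn n)) : ConjClasses (An n) :=
  Classical.epsilon (fun y => io y = x)

theorem io_dd (y : ConjClasses (An n)) : io (dd (io y)) = io y :=
  Classical.epsilon_spec (p := fun y' => io y' = io y) ⟨y, rfl⟩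

open Classical in
noncomputable def Psi (y : ConjClasses (An n)) : ConjClasses (Sn n) :=
  if y = dd (io y) then io y else hh (io y)

theorem Psi_inj (hn : 5 ≤ n) : Function.Injective (Psi : ConjClasses (An n) → _) := by
  classical
  intro y y' h
  unfold Psi at h
  by_cases h1 : y = dd (io y) <;> by_cases h2 : y' = dd (io y')
  · rw [if_pos h1, if_pos h2] at h
    rw [h1, h2, h]
  · rw [if_pos h1, if_neg h2] at h
    have s1 := sg_io y
    have s2 := (hh_spec hn (io y') (F1 (io_dd y').symm h2)).2
    rw [h, s2] at s1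
    exact absurd s1 (by decide)
  · rw [if_neg h1, if_pos h2] at h
    have s1 := sg_io y'
    have s2 := (hh_spec hn (io y) (F1 (io_dd y).symm h1)).2
    rw [← h, s2] at s1
    exact absurd s1 (by decide)
  · rw [if_neg h1, if_neg h2] at h
    have p1 := F1 (io_dd y).symm h1
    have p2 := F1 (io_dd y').symm h2
    have c1 := (hh_spec hn _ p1).1
    have c2 := (hh_spec hn _ p2).1
    rw [h, c2] at c1
    have hio : io y = io y' := ct_inj (dec_inj hn p1 p2 c1.symm)
    rcases F2 y y' (dd (io y)) hio (io_dd y).symm with e | e | e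
    · exact e
    · exact absurd e h1
    · rw [hio] at e
      exact absurd e h2

theorem Psi_not_surj (hn : 5 ≤ n) :
    ConjClasses.mk (Equiv.swap (⟨0, by omega⟩ : Fin n) ⟨1, by omega⟩) ∉
      Set.range (Psi : ConjClasses (An n) → _) := by
  classical
  rintro ⟨y, hy⟩
  have hne : (⟨0, by omega⟩ : Fin n) ≠ ⟨1, by omega⟩ := by
    intro h
    simp at h
  unfold Psi at hy
  by_cases h1 : y = dd (io y)
  · rw [if_pos h1] at hy
    have s1 := sg_io y
    rw [hy, sg_mk, sign_swap hne] at s1
    exact absurd s1 (by decide)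
  · rw [if_neg h1] at hy
    have p1 := F1 (io_dd y).symm h1
    have c1 := (hh_spec hn _ p1).1
    rw [hy, ct_mk, isSwap_iff_cycleType.1 ⟨_, _, hne, rfl⟩] at c1
    obtain ⟨a1, o1⟩ := split_facts hn p1
    unfold dec at c1
    have hcard := congrArg Multiset.card c1
    have hsum := congrArg Multiset.sum c1
    rw [Multiset.sum_cons] at hsum
    have s1 := Multiset.sum_erase a1
    have s2 := p1.2.1
    have hz : (ct (io y)).erase (lp (ct (io y))) = 0 := by
      rw [Multiset.card_cons] at hcard
      simp at hcard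
      exact hcard
    rw [hz] at hsum s1
    simp at hsum s1
    omega

theorem kA_lt (hn : 5 ≤ n) :
    Nat.card (ConjClasses (An n)) < Nat.card (ConjClasses (Sn n)) := by
  classical
  letI : Fintype (ConjClasses (An n)) := Fintype.ofFinite _
  letI : Fintype (ConjClasses (Sn n)) := Fintype.ofFinite _
  rw [Nat.card_eq_fintype_card, Nat.card_eq_fintype_card]
  exact Fintype.card_lt_of_injective_of_notMem Psi (Psi_inj hn) (Psi_not_surj hn)

end Cfsg.Agent.Lib.Helper11.Cls
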