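import Mathlib

set_option autoImplicit false

namespace Cfsg.Agent.Lib.Helper11.Cls

open Multiset

/-- a partition from a multiset (junk value if the sum is wrong) -/
noncomputable def mk (m : ℕ) (s : Multiset ℕ) : Nat.Partition m :=
  if h : s.sum = m then Nat.Partition.ofSums m s h else Nat.Partition.indiscrete m

theorem mk_parts (m : ℕ) (s : Multiset ℕ) (h : s.sum = m) (hpos : ∀ x ∈ s, 0 < x) :
    (mk m s).parts = s := by
  unfold mk
  rw [dif_pos h, Nat.Partition.ofSums_parts]
  apply Multiset.filter_eq_self.2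
  intro x hx
  exact (hpos x hx).ne'

/-- least part -/
noncomputable def lp (s : Multiset ℕ) : ℕ := sInf {b | b ∈ s}

theorem lp_mem {s : Multiset ℕ} (h : s ≠ 0) : lp s ∈ s := by
  obtain ⟨a, ha⟩ := Multiset.exists_mem_of_ne_zero h
  exact Nat.sInf_mem (s := {b | b ∈ s}) ⟨a, ha⟩

theorem lp_le {s : Multiset ℕ} {b : ℕ} (h : b ∈ s) : lp s ≤ b := Nat.sInf_le (s := {b | b ∈ s}) h

open Classical in
noncomputable def g (m : ℕ) (l : Nat.Partition (m + 1)) : Bool × Nat.Partition m :=
  if 1 ∈ l.parts then (false, mk m (l.parts.erase 1))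
  else (true, mk m ((lp l.parts - 1) ::ₘ l.parts.erase (lp l.parts)))

theorem parts_ne_zero {m : ℕ} (l : Nat.Partition (m + 1)) : l.parts ≠ 0 := by
  intro h
  have := l.parts_sum
  rw [h] at this
  simp at this

theorem g_inj (m : ℕ) : Function.Injective (g m) := by
  classical
  intro l l' h
  unfold g at h
  have key1 : ∀ k : Nat.Partition (m + 1), 1 ∈ k.parts →
      (mk m (k.parts.erase 1)).parts = k.parts.erase 1 := by
    intro k hk
    apply mk_parts
    · have := Multiset.sum_erase hk
      rw [k.parts_sum] at this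
      omega
    · intro x hx
      exact k.parts_pos (Multiset.mem_of_mem_erase hx)
  have key2 : ∀ k : Nat.Partition (m + 1), 1 ∉ k.parts →
      (mk m ((lp k.parts - 1) ::ₘ k.parts.erase (lp k.parts))).parts =
        (lp k.parts - 1) ::ₘ k.parts.erase (lp k.parts) ∧ 2 ≤ lp k.parts := by
    intro k hk
    have hm := lp_mem (parts_ne_zero k)
    have hp := k.parts_pos hm
    have h2 : 2 ≤ lp k.parts := by
      by_contra hc
      have : lp k.parts = 1 := by omega
      rw [this] at hm
      exact hk hm
    refine ⟨?_, h2⟩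
    apply mk_parts
    · have := Multiset.sum_erase hm
      rw [k.parts_sum] at this
      rw [Multiset.sum_cons]
      omega
    · intro x hx
      rcases Multiset.mem_cons.1 hx with rfl | hx
      · omega
      · exact k.parts_pos (Multiset.mem_of_mem_erase hx)
  by_cases h1 : 1 ∈ l.parts <;> by_cases h1' : 1 ∈ l'.parts
  · rw [if_pos h1, if_pos h1'] at h
    have h2 := congrArg (fun x => x.2.parts) h
    simp only [key1 l h1, key1 l' h1'] at h2
    apply Nat.Partition.ext
    rw [← Multiset.cons_erase h1, ← Multiset.cons_erase h1', h2]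
  · rw [if_pos h1, if_neg h1'] at h
    simp at h
  · rw [if_neg h1, if_pos h1'] at h
    simp at h
  · rw [if_neg h1, if_neg h1'] at h
    have h2 := congrArg (fun x => x.2.parts) h
    obtain ⟨k1, a2⟩ := key2 l h1
    obtain ⟨k1', a2'⟩ := key2 l' h1'
    simp only [k1, k1'] at h2
    have hm := lp_mem (parts_ne_zero l)
    have hm' := lp_mem (parts_ne_zero l')
    have e1 : lp l.parts - 1 ∈ (lp l'.parts - 1) ::ₘ l'.parts.erase (lp l'.parts) := by
      rw [← h2]; exact Multiset.mem_cons_self _ _
    have e2 : lp l'.parts - 1 ∈ (lp l.parts - 1) ::ₘ l.parts.erase (lp l.parts) := by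
      rw [h2]; exact Multiset.mem_cons_self _ _
    have heq : lp l.parts = lp l'.parts := by
      rcases Multiset.mem_cons.1 e1 with e1 | e1
      · omega
      · have b1 := lp_le (Multiset.mem_of_mem_erase e1)
        rcases Multiset.mem_cons.1 e2 with e2 | e2
        · omega
        · have b2 := lp_le (Multiset.mem_of_mem_erase e2)
          omega
    rw [heq] at h2
    have h3 := (Multiset.cons_inj_right _).1 h2
    apply Nat.Partition.ext
    rw [← Multiset.cons_erase hm, ← Multiset.cons_erase hm', heq, ← h3]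

theorem step (m : ℕ) : Fintype.card (Nat.Partition (m + 1)) ≤ 2 * Fintype.card (Nat.Partition m) := by
  have := Fintype.card_le_of_injective (g m) (g_inj m)
  rwa [Fintype.card_prod, Fintype.card_bool] at this

/-- counts of the parts 2,3,4,5 -/
def cnt (l : Nat.Partition 5) : ℕ × ℕ × ℕ × ℕ :=
  (l.parts.count 2, l.parts.count 3, l.parts.count 4, l.parts.count 5)

def Tset : Finset (ℕ × ℕ × ℕ × ℕ) :=
  ((Finset.range 3) ×ˢ (Finset.range 2) ×ˢ (Finset.range 2) ×ˢ (Finset.range 2)).filter
    (fun c => 2 * c.1 + 3 * c.2.1 + 4 * c.2.2.1 + 5 * c.2.2.2 ≤ 5)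

theorem card_Tset : Tset.card = 7 := by decide +kernel

theorem sum_counts (l : Nat.Partition 5) :
    l.parts.count 1 + 2 * l.parts.count 2 + 3 * l.parts.count 3 + 4 * l.parts.count 4 +
      5 * l.parts.count 5 = 5 := by
  have hsub : l.parts.toFinset ⊆ Finset.Icc 1 5 := by
    intro x hx
    rw [Multiset.mem_toFinset] at hx
    rw [Finset.mem_Icc]
    refine ⟨l.parts_pos hx, ?_⟩
    have := Multiset.le_sum_of_mem hx
    rwa [l.parts_sum] at this
  have h := Finset.sum_multiset_count_of_subset l.parts (Finset.Icc 1 5) hsub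
  rw [l.parts_sum] at h
  have h5 : (Finset.Icc 1 5 : Finset ℕ) = {1, 2, 3, 4, 5} := by decide
  rw [h5] at h
  simp at h
  omega

theorem cnt_inj : Function.Injective cnt := by
  intro l l' h
  have s1 := sum_counts l
  have s2 := sum_counts l'
  unfold cnt at h
  simp only [Prod.mk.injEq] at h
  obtain ⟨h2, h3, h4, h5⟩ := h
  apply Nat.Partition.ext
  rw [Multiset.ext]
  intro a
  have hout : ∀ (k : Nat.Partition 5) (a : ℕ), (a = 0 ∨ 6 ≤ a) → k.parts.count a = 0 := by
    intro k a ha
    rw [Multiset.count_eq_zero]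
    intro hm
    have p1 := k.parts_pos hm
    have p2 := Multiset.le_sum_of_mem hm
    rw [k.parts_sum] at p2
    omega
  by_cases ha : a = 0 ∨ 6 ≤ a
  · rw [hout l a ha, hout l' a ha]
  · have : a = 1 ∨ a = 2 ∨ a = 3 ∨ a = 4 ∨ a = 5 := by omega
    rcases this with rfl | rfl | rfl | rfl | rfl
    · omega
    · exact h2
    · exact h3
    · exact h4
    · exact h5

theorem base5 : Fintype.card (Nat.Partition 5) ≤ 8 := by
  have h1 : Fintype.card (Nat.Partition 5) ≤ Tset.card := by
    rw [← Finset.card_univ]
    apply Finset.card_le_card_of_injOn cnt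
    · intro l _
      have s1 := sum_counts l
      simp only [Tset, cnt, Finset.coe_filter, Finset.mem_product, Finset.mem_range, Set.mem_setOf_eq]
      omega
    · exact cnt_inj.injOn
  rw [card_Tset] at h1
  omega

theorem part_le (m : ℕ) (hm : 5 ≤ m) : Fintype.card (Nat.Partition m) ≤ 2 ^ (m - 2) := by
  induction m, hm using Nat.le_induction with
  | base => exact base5
  | succ k hk ih =>
    have h1 := step k
    have h2 : 2 ^ (k + 1 - 2) = 2 * 2 ^ (k - 2) := by
      have : k + 1 - 2 = (k - 2) + 1 := by omega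
      rw [this, pow_succ]
      ring
    rw [h2]
    omega

end Cfsg.Agent.Lib.Helper11.Cls
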